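import Cfsg.Agent.SporRec.Ru.Counts
set_option linter.all false

/-! Uniqueness of the rank three graph: it is isomorphic with the Rudvalis graph on 4060 points. -/

set_option autoImplicit false
set_option maxRecDepth 4000
set_option linter.unusedSectionVars false

namespace Cfsg.Agent.SporRec.Ru.Unique

open Finset Cfsg.Agent.SporRec.R3.Config Cfsg.Agent.SporRec.R3.YPart
open Cfsg.Agent.SporRec.Ru.Rep Cfsg.Agent.SporRec.Ru.Point Cfsg.Agent.SporRec.Ru.Eqn
open Cfsg.Agent.SporRec.Ru.Lift Cfsg.Agent.SporRec.Ru.Counts Cfsg.Agent.SporRec.Ru.Exclude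
open Cfsg.Agent.ChevalleyStructure.Tits.Order
open Cfsg.Agent.SporadicB.RuData Cfsg.Agent.Lib.BitNet

variable {Ω : Type*} [Fintype Ω] [DecidableEq Ω] {C : Conf Ω H0}

theorem exchange {ι : Type*} [DecidableEq ι] (X E V : Finset ι) (hE : E ⊆ X)
    (hc : E.card = V.card) (q : ι → ℕ) (hs : ∑ x ∈ E, q x = ∑ x ∈ V, q x)
    (h1 : ∀ x ∈ X, x ∉ V → q x = 332) (h2 : ∀ x ∈ V, 333 ≤ q x) : E = V := by
  have e1 : ∑ x ∈ E ∩ V, q x + ∑ x ∈ E \ V, q x = ∑ x ∈ E, q x := by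
    exact sum_inter_add_sum_sdiff E V q
  have e2 : ∑ x ∈ E ∩ V, q x + ∑ x ∈ V \ E, q x = ∑ x ∈ V, q x := by
    rw [inter_comm]; exact sum_inter_add_sum_sdiff V E q
  have c1 := card_sdiff_add_card_inter E V
  have c2 := card_sdiff_add_card_inter V E
  rw [inter_comm V E] at c2
  have e3 : ∑ x ∈ E \ V, q x = 332 * (E \ V).card := by
    rw [sum_congr rfl (g := fun _ => 332), sum_const, smul_eq_mul, mul_comm]
    intro x hx
    rw [mem_sdiff] at hx
    exact h1 x (hE hx.1) hx.2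
  have e4 : 333 * (V \ E).card ≤ ∑ x ∈ V \ E, q x := by
    rw [mul_comm, ← smul_eq_mul, ← sum_const]
    apply sum_le_sum
    intro x hx
    rw [mem_sdiff] at hx
    exact h2 x hx.1
  have e5 : (V \ E).card = 0 := by omega
  have e6 : (E \ V).card = 0 := by omega
  rw [card_eq_zero, sdiff_eq_empty_iff_subset] at e5 e6
  exact Subset.antisymm e6 e5

theorem card_S (hΔ : C.Δ.card = 2304) (hΩ : Fintype.card Ω = 4060) (M : YMap C ρ) {d : Ω} (hd : d ∈ C.Δ) :
    (M.S d).card = 975 := by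
  have h1 := M.card_S hd
  have h2 := (params hΔ hΩ M).2.2
  omega

theorem S_act_eq (M : YMap C ρ) {h : H0} {s : Equiv.Perm (Fin 4060)} (a : Match h s) {d : Ω} {x : Fin 4060}
    (hS : M.S d = T x) : M.S (C.act h d) = T (s x) := by
  ext y
  have e : ρ h (ρ h⁻¹ y) = y := by rw [map_inv]; simp
  rw [← e, M.S_act h d, T_act a, hS]

theorem exists_S_of_D' (hΔ : C.Δ.card = 2304) (hΩ : Fintype.card Ω = 4060) (M : YMap C ρ) (x : Fin 4060)
    (hx : D' x) : ∃ d ∈ C.Δ, M.S d = T x := by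
  obtain ⟨d, hd, m, hm, hm2⟩ := exists_good hΔ hΩ M
  obtain ⟨x1, hx1, hx2⟩ := good_T hm
  rw [hx2] at hm2
  obtain ⟨h, s, a, rfl⟩ := exists_match_to hx
  obtain ⟨k, t, b, rfl⟩ := exists_match_to hx1
  refine ⟨C.act (h * k⁻¹) d, C.hΔ _ _ hd, ?_⟩
  rw [S_act_eq M (a.mul b.inv) hm2]
  congr 1
  rw [Equiv.Perm.mul_apply]; simp

theorem exists_D'_of_S (hΔ : C.Δ.card = 2304) (hΩ : Fintype.card Ω = 4060) (M : YMap C ρ) (d : Ω)
    (hd : d ∈ C.Δ) : ∃ x, D' x ∧ M.S d = T x := by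
  obtain ⟨d1, hd1, m, hm, hm2⟩ := exists_good hΔ hΩ M
  obtain ⟨x1, hx1, hx2⟩ := good_T hm
  rw [hx2] at hm2
  obtain ⟨h, rfl⟩ := C.tΔ d1 hd1 d hd
  obtain ⟨s, a⟩ := exists_match h
  exact ⟨s x1, (D'_act a x1).2 hx1, S_act_eq M a hm2⟩

theorem card_T (hΔ : C.Δ.card = 2304) (hΩ : Fintype.card Ω = 4060) (M : YMap C ρ) {x : Fin 4060}
    (hx : D' x) : (T x).card = 975 := by
  obtain ⟨d, hd, h⟩ := exists_S_of_D' hΔ hΩ M x hx
  rw [← h, card_S hΔ hΩ M hd]

theorem T_inj (hΔ : C.Δ.card = 2304) (hΩ : Fintype.card Ω = 4060) (M : YMap C ρ) {x v : Fin 4060}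
    (hx : D' x) (hv : D' v) (h : T x = T v) : x = v := by
  by_contra hne
  have h1 := card_T_inter x v
  rw [h, inter_self, card_T hΔ hΩ M hv] at h1
  have h2 := q_cases hx hv (Ne.symm hne)
  omega

/-- the bijection between the 2304 points and `Δ` -/
noncomputable def psi (hΔ : C.Δ.card = 2304) (hΩ : Fintype.card Ω = 4060) (M : YMap C ρ) (x : Fin 4060) : Ω :=
  if h : D' x then (exists_S_of_D' hΔ hΩ M x h).choose else C.α

theorem psi_mem (hΔ : C.Δ.card = 2304) (hΩ : Fintype.card Ω = 4060) (M : YMap C ρ) {x : Fin 4060} (hx : D' x) :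
    psi hΔ hΩ M x ∈ C.Δ := by
  unfold psi
  rw [dif_pos hx]
  exact (exists_S_of_D' hΔ hΩ M x hx).choose_spec.1

theorem S_psi (hΔ : C.Δ.card = 2304) (hΩ : Fintype.card Ω = 4060) (M : YMap C ρ) {x : Fin 4060} (hx : D' x) :
    M.S (psi hΔ hΩ M x) = T x := by
  unfold psi
  rw [dif_pos hx]
  exact (exists_S_of_D' hΔ hΩ M x hx).choose_spec.2

theorem psi_inj (hΔ : C.Δ.card = 2304) (hΩ : Fintype.card Ω = 4060) (M : YMap C ρ) {x v : Fin 4060}
    (hx : D' x) (hv : D' v) (h : psi hΔ hΩ M x = psi hΔ hΩ M v) : x = v := by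
  apply T_inj hΔ hΩ M hx hv
  rw [← S_psi hΔ hΩ M hx, ← S_psi hΔ hΩ M hv, h]

theorem image_psi (hΔ : C.Δ.card = 2304) (hΩ : Fintype.card Ω = 4060) (M : YMap C ρ) :
    (univ.filter fun x => D' x).image (psi hΔ hΩ M) = C.Δ := by
  apply Finset.eq_of_subset_of_card_le
  · intro d hd
    rw [mem_image] at hd
    obtain ⟨x, hx, rfl⟩ := hd
    rw [mem_filter] at hx
    exact psi_mem hΔ hΩ M hx.2
  · rw [card_image_of_injOn, card_D', hΔ]
    intro x hx v hv h
    simp only [coe_filter, mem_univ, true_and, Set.mem_ofPred_eq] at hx hv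
    exact psi_inj hΔ hΩ M hx hv h

theorem exists_psi (hΔ : C.Δ.card = 2304) (hΩ : Fintype.card Ω = 4060) (M : YMap C ρ) {d : Ω} (hd : d ∈ C.Δ) :
    ∃ x, D' x ∧ psi hΔ hΩ M x = d := by
  rw [← image_psi hΔ hΩ M, mem_image] at hd
  obtain ⟨x, hx, h⟩ := hd
  rw [mem_filter] at hx
  exact ⟨x, hx.2, h⟩

/-! ### the average argument -/

theorem card_A_inter (hΔ : C.Δ.card = 2304) (hΩ : Fintype.card Ω = 4060) (M : YMap C ρ) {d : Ω} (hd : d ∈ C.Δ)
    {y : Fin 1755} (hy : y ∈ M.S d) : (M.S d ∩ M.A y).card = 576 := by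
  obtain ⟨g, hg⟩ := exists_to_zero y
  have h1 : (M.S d ∩ M.A y).card = (M.S (C.act g d) ∩ M.A (ρ g y)).card := by
    have : M.S (C.act g d) ∩ M.A (ρ g y) = (M.S d ∩ M.A y).map (ρ g).toEmbedding := by
      ext w
      rw [Finset.mem_map_equiv, mem_inter, mem_inter, ← M.S_act g d, ← M.A_act g y]
      simp
    rw [this, card_map]
  have hgd := C.hΔ g d hd
  obtain ⟨x, hx, hS⟩ := exists_D'_of_S hΔ hΩ M _ hgd
  rw [h1, hg, hS]
  have h2 : y0 ∈ T x := by
    rw [← hS]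
    have := (M.S_act g d y).2 hy
    rwa [hg] at this
  have h3 := opp_count hx h2
  rw [← h3]
  congr 1
  ext w
  rw [mem_inter, mem_filter]
  have h4 := (params hΔ hΩ M).1 w
  have h5 : (w ∈ M.A ⟨0, hn⟩) ↔ cl w = 4 := h4
  rw [h5]
  constructor
  · rintro ⟨h6, h7⟩; exact ⟨mem_univ _, h7, h6⟩
  · rintro ⟨_, h6, h7⟩; exact ⟨h7, h6⟩

theorem cn_split (M : YMap C ρ) {d : Ω} (hd : d ∈ C.Δ) (y : Fin 1755) :
    ((C.Δ.filter fun z => C.adj d z).filter fun z => y ∈ M.S z).card + (M.S d ∩ M.A y).card =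
      C.cn d (M.f y) := by
  classical
  have e : (M.S d ∩ M.A y).card = (C.Λ.filter fun w => C.adj d w ∧ C.adj (M.f y) w).card := by
    rw [M.filter_Λ_card]
    congr 1
    ext w
    simp [M.mem_A, M.mem_S]
  rw [e]
  unfold Conf.cn
  rw [← card_union_of_disjoint]
  · congr 1
    ext w
    simp only [mem_union, mem_filter, mem_univ, true_and, M.mem_S]
    constructor
    · rintro (⟨⟨h1, h2⟩, h3⟩ | ⟨h1, h2, h3⟩)
      · exact ⟨h2, C.adj_symm h3⟩
      · exact ⟨h2, h3⟩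
    · rintro ⟨h2, h3⟩
      rcases C.cover w with h | h | h
      · exfalso
        rw [h, C.adj_comm, C.adj_alpha] at h3
        exact (Finset.disjoint_left.1 C.disj) h3 (M.mem y)
      · exact Or.inl ⟨⟨h, h2⟩, C.adj_symm h3⟩
      · exact Or.inr ⟨h, h2, h3⟩
  · rw [Finset.disjoint_left]
    intro w hw hw'
    exact (Finset.disjoint_left.1 C.disj) (mem_filter.1 (mem_filter.1 hw).1).1 (mem_filter.1 hw').1

theorem sum_inter (hΔ : C.Δ.card = 2304) (hΩ : Fintype.card Ω = 4060) (M : YMap C ρ) {d : Ω} (hd : d ∈ C.Δ) :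
    ∑ z ∈ C.Δ.filter (fun z => C.adj d z), (M.S d ∩ M.S z).card = 733200 := by
  classical
  have h1 : ∑ z ∈ C.Δ.filter (fun z => C.adj d z), (M.S d ∩ M.S z).card =
      ∑ y ∈ M.S d, ((C.Δ.filter fun z => C.adj d z).filter fun z => y ∈ M.S z).card := by
    have := Finset.sum_card_bipartiteAbove_eq_sum_card_bipartiteBelow (s := C.Δ.filter fun z => C.adj d z)
      (t := M.S d) (fun z y => y ∈ M.S z)
    refine Eq.trans ?_ this
    apply sum_congr rfl
    intro z _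
    congr 1
  rw [h1, sum_congr rfl (g := fun _ => 752)]
  · rw [sum_const, card_S hΔ hΩ M hd, smul_eq_mul]
  · intro y hy
    have h2 := cn_split M hd y
    have h3 := (M.mem_S d y).1 hy
    rw [C.cn_adj h3, (params hΔ hΩ M).2.2, card_A_inter hΔ hΩ M hd hy] at h2
    omega

theorem adj_psi (hΔ : C.Δ.card = 2304) (hΩ : Fintype.card Ω = 4060) (M : YMap C ρ) {x v : Fin 4060}
    (hx : D' x) (hv : D' v) (hne : v ≠ x) :
    C.adj (psi hΔ hΩ M x) (psi hΔ hΩ M v) ↔ ¬ ort x v := by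
  classical
  have hd := psi_mem hΔ hΩ M hx
  set d := psi hΔ hΩ M x with hdd
  set E := univ.filter (fun v => D' v ∧ C.adj d (psi hΔ hΩ M v)) with hE
  have himg : E.image (psi hΔ hΩ M) = C.Δ.filter fun z => C.adj d z := by
    ext z
    rw [mem_image, mem_filter]
    constructor
    · rintro ⟨v, hv, rfl⟩
      rw [hE, mem_filter] at hv
      exact ⟨psi_mem hΔ hΩ M hv.2.1, hv.2.2⟩
    · rintro ⟨h1, h2⟩
      obtain ⟨v, hv, rfl⟩ := exists_psi hΔ hΩ M h1
      exact ⟨v, by rw [hE, mem_filter]; exact ⟨mem_univ _, hv, h2⟩, rfl⟩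
  have hinj : Set.InjOn (psi hΔ hΩ M) (E : Set (Fin 4060)) := by
    intro a ha b hb h
    rw [mem_coe, hE, mem_filter] at ha hb
    exact psi_inj hΔ hΩ M ha.2.1 hb.2.1 h
  have hcE : E.card = 1328 := by
    have h1 := C.card_Δ_adj' hd
    rw [(params hΔ hΩ M).2.2, ← himg, card_image_of_injOn hinj] at h1
    exact h1
  have hq : ∀ v, D' v → (M.S d ∩ M.S (psi hΔ hΩ M v)).card = 195 + q x v := by
    intro v hv
    rw [hdd, S_psi hΔ hΩ M hx, S_psi hΔ hΩ M hv]
    have h1 := card_T_inter x v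
    rw [card_T hΔ hΩ M hx, card_T hΔ hΩ M hv] at h1
    omega
  have hsE : ∑ v ∈ E, q x v = 474240 := by
    have h1 := sum_inter hΔ hΩ M hd
    rw [← himg, sum_image hinj, sum_congr rfl (g := fun v => 195 + q x v)] at h1
    · rw [sum_add_distrib, sum_const, hcE, smul_eq_mul] at h1
      omega
    · intro v hv
      rw [hE, mem_filter] at hv
      exact hq v hv.2.1
  obtain ⟨c0, c1, c2, c3⟩ := card_lev hx
  have hlev : ∀ c, ∑ v ∈ lev x c, q x v = (lev x c).card * c := by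
    intro c
    rw [sum_congr rfl (g := fun _ => c), sum_const, smul_eq_mul]
    intro v hv
    unfold lev at hv
    rw [mem_filter] at hv
    exact hv.2.2.2
  have hdis : ∀ c c', c ≠ c' → Disjoint (lev x c) (lev x c') := by
    intro c c' hcc
    rw [Finset.disjoint_left]
    intro v hv hv'
    unfold lev at hv hv'
    rw [mem_filter] at hv hv'
    exact hcc (hv.2.2.2.symm.trans hv'.2.2.2)
  have hd1 : Disjoint (lev x 348) (lev x 364) := hdis _ _ (by norm_num)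
  have hd2 : Disjoint (lev x 348 ∪ lev x 364) (lev x 380) := by
    rw [disjoint_union_left]
    exact ⟨hdis _ _ (by norm_num), hdis _ _ (by norm_num)⟩
  have key : E = (lev x 348 ∪ lev x 364) ∪ lev x 380 := by
    apply exchange (univ.filter fun v => D' v ∧ v ≠ x) E _ ?_ ?_ (q x) ?_ ?_ ?_
    · intro v hv
      rw [hE, mem_filter] at hv
      rw [mem_filter]
      refine ⟨mem_univ _, hv.2.1, ?_⟩
      rintro rfl
      exact C.not_adj_self _ hv.2.2
    · rw [card_union_of_disjoint hd2, card_union_of_disjoint hd1, c1, c2, c3, hcE]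
    · rw [sum_union hd2, sum_union hd1, hlev, hlev, hlev, c1, c2, c3, hsE]
    · intro v hv hv2
      rw [mem_filter] at hv
      rw [mem_union, mem_union, not_or, not_or] at hv2
      unfold lev at hv2
      simp only [mem_filter, mem_univ, true_and] at hv2
      rcases q_cases hx hv.2.1 hv.2.2 with h | h | h | h
      · exact h
      · exact absurd ⟨hv.2.1, hv.2.2, h⟩ hv2.1.1
      · exact absurd ⟨hv.2.1, hv.2.2, h⟩ hv2.1.2
      · exact absurd ⟨hv.2.1, hv.2.2, h⟩ hv2.2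
    · intro v hv
      rw [mem_union, mem_union] at hv
      unfold lev at hv
      simp only [mem_filter, mem_univ, true_and] at hv
      rcases hv with (h | h) | h <;> omega
  have hmem : v ∈ E ↔ C.adj d (psi hΔ hΩ M v) := by
    rw [hE, mem_filter]
    exact ⟨fun h => h.2.2, fun h => ⟨mem_univ _, hv, h⟩⟩
  rw [← hmem, key, ort_iff hx hv hne, mem_union, mem_union]
  unfold lev
  simp only [mem_filter, mem_univ, true_and]
  constructor
  · rintro ((h | h) | h) <;> omega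
  · intro h
    rcases q_cases hx hv hne with h1 | h1 | h1 | h1
    · exact absurd h1 h
    · exact Or.inl (Or.inl ⟨hv, hne, h1⟩)
    · exact Or.inl (Or.inr ⟨hv, hne, h1⟩)
    · exact Or.inr ⟨hv, hne, h1⟩

/-! ### adjacency on the octagon -/

theorem adj_f (hΔ : C.Δ.card = 2304) (hΩ : Fintype.card Ω = 4060) (M : YMap C ρ) {y w : Fin 1755} (hne : y ≠ w) :
    C.adj (M.f y) (M.f w) ↔ ¬ ort (pi y) (pi w) := by
  obtain ⟨g, hg⟩ := exists_to_zero y
  obtain ⟨s, a⟩ := exists_match g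
  rw [← M.mem_A, ← M.A_act g, ← a.ort, ← a.com, ← a.com, hg]
  have h1 := (params hΔ hΩ M).1 (ρ g w)
  have h2 : (ρ g w ∈ M.A ⟨0, hn⟩) ↔ cl (ρ g w) = 4 := h1
  have h3 := ort_pi_y0 (ρ g w)
  have h4 : ort (pi ⟨0, hn⟩) (pi (ρ g w)) ↔ 1 ≤ cl (ρ g w) ∧ cl (ρ g w) ≤ 3 := h3
  rw [h2, h4]
  have h5 := cl_le (ρ g w)
  have h6 : cl (ρ g w) ≠ 0 := by
    intro h
    have := cl_zero h
    have h7 : ρ g w = ρ g y := by rw [this, hg]; rfl
    exact hne ((ρ g).injective h7).symm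
  omega

/-! ### the isomorphism of graphs -/

/-- the identification of the two vertex sets -/
noncomputable def theta (hΔ : C.Δ.card = 2304) (hΩ : Fintype.card Ω = 4060) (M : YMap C ρ) (u : Fin 4060) : Ω :=
  if h : ort z0 u then M.f (exists_pi h).choose else psi hΔ hΩ M u

theorem theta_pi (hΔ : C.Δ.card = 2304) (hΩ : Fintype.card Ω = 4060) (M : YMap C ρ) (y : Fin 1755) :
    theta hΔ hΩ M (pi y) = M.f y := by
  unfold theta
  rw [dif_pos (ort_pi y)]
  congr 1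
  exact pi_injective (exists_pi (ort_pi y)).choose_spec

theorem theta_D' (hΔ : C.Δ.card = 2304) (hΩ : Fintype.card Ω = 4060) (M : YMap C ρ) {x : Fin 4060} (hx : D' x) :
    theta hΔ hΩ M x = psi hΔ hΩ M x := by
  unfold theta
  rw [dif_neg hx.2]

theorem theta_z0 (hΔ : C.Δ.card = 2304) (hΩ : Fintype.card Ω = 4060) (M : YMap C ρ) :
    theta hΔ hΩ M z0 = C.α := by
  unfold theta psi
  rw [dif_neg (ort_irrefl z0), dif_neg (fun h => h.1 rfl)]

theorem cases_u (u : Fin 4060) : u = z0 ∨ (∃ y, u = pi y) ∨ D' u := by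
  by_cases h : u = z0
  · exact Or.inl h
  · by_cases h2 : ort z0 u
    · obtain ⟨y, hy⟩ := exists_pi h2
      exact Or.inr (Or.inl ⟨y, hy.symm⟩)
    · exact Or.inr (Or.inr ⟨h, h2⟩)

theorem adj_theta (hΔ : C.Δ.card = 2304) (hΩ : Fintype.card Ω = 4060) (M : YMap C ρ) (u v : Fin 4060)
    (hne : u ≠ v) : C.adj (theta hΔ hΩ M u) (theta hΔ hΩ M v) ↔ ¬ ort u v := by
  have key0 : ∀ v, v ≠ z0 → (C.adj (theta hΔ hΩ M z0) (theta hΔ hΩ M v) ↔ ¬ ort z0 v) := by
    intro v hv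
    rw [theta_z0, C.adj_alpha]
    rcases cases_u v with h | ⟨y, rfl⟩ | h
    · exact absurd h hv
    · rw [theta_pi]
      constructor
      · intro h; exact absurd (M.mem y) (Finset.disjoint_left.1 C.disj h)
      · intro h; exact absurd (ort_pi y) h
    · rw [theta_D' hΔ hΩ M h]
      exact ⟨fun _ => h.2, fun _ => psi_mem hΔ hΩ M h⟩
  have key1 : ∀ x y, D' x → (C.adj (theta hΔ hΩ M x) (theta hΔ hΩ M (pi y)) ↔ ¬ ort x (pi y)) := by
    intro x y hx
    rw [theta_pi, theta_D' hΔ hΩ M hx, ← M.mem_S, S_psi hΔ hΩ M hx, mem_T]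
  rcases cases_u u with rfl | ⟨y, rfl⟩ | hu
  · exact key0 v (Ne.symm hne)
  · rcases cases_u v with rfl | ⟨w, rfl⟩ | hv
    · rw [C.adj_comm, ort_symm]; exact key0 _ hne
    · rw [theta_pi, theta_pi]
      exact adj_f hΔ hΩ M (fun h => hne (by rw [h]))
    · rw [C.adj_comm, ort_symm]; exact key1 v y hv
  · rcases cases_u v with rfl | ⟨w, rfl⟩ | hv
    · rw [C.adj_comm, ort_symm]; exact key0 _ hne
    · exact key1 u w hu
    · rw [theta_D' hΔ hΩ M hu, theta_D' hΔ hΩ M hv]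
      exact adj_psi hΔ hΩ M hu hv (Ne.symm hne)

theorem theta_inj (hΔ : C.Δ.card = 2304) (hΩ : Fintype.card Ω = 4060) (M : YMap C ρ) :
    Function.Injective (theta hΔ hΩ M) := by
  have hα : ∀ y, M.f y ≠ C.α := fun y h => C.αΛ (h ▸ M.mem y)
  have hα2 : ∀ x, D' x → psi hΔ hΩ M x ≠ C.α := fun x hx h => C.αΔ (h ▸ psi_mem hΔ hΩ M hx)
  have hd : ∀ x y, D' x → psi hΔ hΩ M x ≠ M.f y := fun x y hx h =>
    (Finset.disjoint_left.1 C.disj) (h ▸ psi_mem hΔ hΩ M hx) (M.mem y)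
  intro u v h
  rcases cases_u u with rfl | ⟨y, rfl⟩ | hu
  · rw [theta_z0] at h
    rcases cases_u v with rfl | ⟨w, rfl⟩ | hv
    · rfl
    · rw [theta_pi] at h; exact absurd h.symm (hα w)
    · rw [theta_D' hΔ hΩ M hv] at h; exact absurd h.symm (hα2 v hv)
  · rw [theta_pi] at h
    rcases cases_u v with rfl | ⟨w, rfl⟩ | hv
    · rw [theta_z0] at h; exact absurd h (hα y)
    · rw [theta_pi] at h; rw [M.inj h]
    · rw [theta_D' hΔ hΩ M hv] at h; exact absurd h.symm (hd v y hv)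
  · rw [theta_D' hΔ hΩ M hu] at h
    rcases cases_u v with rfl | ⟨w, rfl⟩ | hv
    · rw [theta_z0] at h; exact absurd h (hα2 u hu)
    · rw [theta_pi] at h; exact absurd h (hd u w hu)
    · rw [theta_D' hΔ hΩ M hv] at h; exact psi_inj hΔ hΩ M hu hv h

theorem theta_bij (hΔ : C.Δ.card = 2304) (hΩ : Fintype.card Ω = 4060) (M : YMap C ρ) :
    Function.Bijective (theta hΔ hΩ M) := by
  rw [Fintype.bijective_iff_injective_and_card]
  exact ⟨theta_inj hΔ hΩ M, by rw [Fintype.card_fin, hΩ]⟩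

end Cfsg.Agent.SporRec.Ru.Unique
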