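import Cfsg.Agent.SporRec.Ru.Lift
set_option linter.all false

/-! Counting in the Rudvalis graph. -/

set_option autoImplicit false
set_option maxRecDepth 4000
set_option linter.unusedSectionVars false

namespace Cfsg.Agent.SporRec.Ru.Counts

open Finset Cfsg.Agent.SporRec.R3.Kernel Cfsg.Agent.SporRec.R3.SchemeK
open Cfsg.Agent.SporRec.Ru.Data Cfsg.Agent.SporRec.Ru.Rep Cfsg.Agent.SporRec.Ru.Point
open Cfsg.Agent.SporRec.Ru.CertData Cfsg.Agent.SporRec.Ru.NetData Cfsg.Agent.SporRec.Ru.MatchChk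
open Cfsg.Agent.SporRec.Ru.Lift
open Cfsg.Agent.SporRec.Ru.SolveRu (ofMask mem_ofMask)
open Cfsg.Agent.SporRec.R3.Search (force_eq)
open Cfsg.Agent.ChevalleyStructure.Tits.Order
open Cfsg.Agent.SporadicB.RuData Cfsg.Agent.Lib.BitNet

/-! ### the embedding `pi` -/

theorem pi_injective : Function.Injective pi := by
  intro i j hij
  obtain ⟨g, hg⟩ := exists_to_zero j
  obtain ⟨s, hs⟩ := exists_match g
  have h1 : pi (ρ g i) = pi (ρ g j) := by rw [hs.com, hs.com, hij]
  rw [hg] at h1
  have h2 : ρ g i = ⟨0, hn⟩ := by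
    by_contra hne
    have hne' : (ρ g i).val ≠ 0 := fun h => hne (Fin.ext h)
    have h3 := (allB_iff _ _).1 pi_zero (ρ g i).val (ρ g i).2
    have e1 : Nat.beq (ρ g i).val 0 = false := by rw [Bool.eq_false_iff, ne_eq, Nat.beq_eq]; exact hne'
    have e2 : Nat.beq (look PI (ρ g i).val) (look PI 0) = true := by
      rw [Nat.beq_eq]; exact congrArg Fin.val h1
    rw [e1, e2] at h3
    exact Bool.false_ne_true h3
  rw [← hg] at h2
  exact (ρ g).injective h2

theorem ort_pi (y : Fin 1755) : ort z0 (pi y) := (allB_iff _ _).1 pi_row0 y.val y.2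

theorem card_ort_le : (univ.filter fun u => ort z0 u).card ≤ 1755 := by
  have h := card_pts_le h4060 (row 0)
  rw [row0_popc] at h
  exact h

theorem image_pi : (univ.filter fun u => ort z0 u) = univ.map ⟨pi, pi_injective⟩ := by
  symm
  apply Finset.eq_of_subset_of_card_le
  · intro u hu
    rw [mem_map] at hu
    obtain ⟨y, _, rfl⟩ := hu
    rw [mem_filter]
    exact ⟨mem_univ _, ort_pi y⟩
  · rw [card_map, card_univ, Fintype.card_fin]
    exact card_ort_le

theorem exists_pi {u : Fin 4060} (h : ort z0 u) : ∃ y, pi y = u := by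
  have : u ∈ univ.filter fun u => ort z0 u := by rw [mem_filter]; exact ⟨mem_univ _, h⟩
  rw [image_pi, mem_map] at this
  obtain ⟨y, _, hy⟩ := this
  exact ⟨y, hy⟩

theorem card_filter_ort (P : Fin 4060 → Prop) [DecidablePred P] :
    (univ.filter fun u => ort z0 u ∧ P u).card = (univ.filter fun y => P (pi y)).card := by
  rw [← filter_filter, image_pi, filter_map, card_map]
  rfl

theorem card_D' : (univ.filter fun u => D' u).card = 2304 := by
  have h1 : (univ.filter fun u => ort z0 u).card = 1755 := by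
    rw [image_pi, card_map, card_univ, Fintype.card_fin]
  have h2 : (univ : Finset (Fin 4060)) = ((univ.filter fun u => ort z0 u) ∪ (univ.filter fun u => D' u)) ∪ {z0} := by
    ext u
    rw [mem_union, mem_union, mem_filter, mem_filter, mem_singleton]
    constructor
    · intro hu
      by_cases h : u = z0
      · exact Or.inr h
      · by_cases h2 : ort z0 u
        · exact Or.inl (Or.inl ⟨hu, h2⟩)
        · exact Or.inl (Or.inr ⟨hu, h, h2⟩)
    · intro _; exact mem_univ u
  have h3 : Disjoint (univ.filter fun u => ort z0 u) (univ.filter fun u => D' u) := by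
    rw [Finset.disjoint_left]
    intro u hu hu'
    rw [mem_filter] at hu hu'
    exact hu'.2.2 hu.2
  have h4 : Disjoint ((univ.filter fun u => ort z0 u) ∪ (univ.filter fun u => D' u)) {z0} := by
    rw [Finset.disjoint_singleton_right, mem_union, mem_filter, mem_filter, not_or]
    exact ⟨fun h => ort_irrefl z0 h.2, fun h => h.2.1 rfl⟩
  have h5 := congrArg card h2
  rw [card_union_of_disjoint h4, card_union_of_disjoint h3, h1, card_univ, Fintype.card_fin, card_singleton] at h5
  omega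

/-! ### triple counts -/

/-- number of common neighbours of `z0`, `x`, `v` -/
def q (x v : Fin 4060) : ℕ := (univ.filter fun u => ort z0 u ∧ ort x u ∧ ort v u).card

theorem q_act {h : H0} {s : Equiv.Perm (Fin 4060)} (a : Match h s) (x v : Fin 4060) : q (s x) (s v) = q x v := by
  unfold q
  have : (univ.filter fun u => ort z0 u ∧ ort (s x) u ∧ ort (s v) u) =
      (univ.filter fun u => ort z0 u ∧ ort x u ∧ ort v u).map s.toEmbedding := by
    ext u
    rw [Finset.mem_map_equiv, mem_filter, mem_filter]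
    have e : ∀ w, ort w (s.symm u) ↔ ort (s w) u := by
      intro w
      rw [← a.ort w (s.symm u), Equiv.apply_symm_apply]
    simp only [mem_univ, true_and]
    rw [e, e, e, a.fix]
  rw [this, card_map]

theorem q_eq (x v : Fin 4060) : q x v = (univ.filter fun y => ort x (pi y) ∧ ort v (pi y)).card := by
  unfold q
  rw [card_filter_ort (fun u => ort x u ∧ ort v u)]

theorem testBit_WM (u : Fin 4060) : WM.testBit u = true ↔ ort z0 u ∧ ort x0 u := by
  unfold WM
  rw [testBit_land', Bool.and_eq_true]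
  exact Iff.rfl

theorem sum_eq_card {P : Fin 4060 → Prop} [DecidablePred P] (m : ℕ) (v : Fin 4060)
    (hm : ∀ u : Fin 4060, m.testBit u = true ↔ P u) :
    (∑ u : Fin 4060, if m.testBit u = true then ((row u).testBit v).toNat else 0) =
      (univ.filter fun u => P u ∧ ort v u).card := by
  rw [card_filter]
  apply sum_congr rfl
  intro u _
  by_cases h1 : P u
  · rw [if_pos ((hm u).2 h1)]
    by_cases h2 : ort v u
    · rw [if_pos ⟨h1, h2⟩]
      have : (row u).testBit v = true := (ort_symm _ _).1 h2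
      rw [this]; rfl
    · rw [if_neg (fun h => h2 h.2)]
      have : ¬ (row u).testBit v = true := fun h => h2 ((ort_symm _ _).1 h)
      rw [Bool.not_eq_true] at this
      rw [this]; rfl
  · rw [if_neg (fun h => h1 ((hm u).1 h)), if_neg (fun h => h1 h.1)]

theorem cnt_x0 (c : ℕ) (v : Fin 4060) : (cntSet 12 4060 row WM c).testBit v = true ↔ q x0 v = c := by
  rw [testBit_cntSet h4060, decide_eq_true_eq, sum_eq_card WM v testBit_WM]
  unfold q
  simp only [and_assoc]

theorem testBit_xor_pow (m b i : ℕ) : (Nat.xor m (Nat.pow 2 b)).testBit i = (m.testBit i ^^ decide (b = i)) := by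
  change (m ^^^ 2 ^ b).testBit i = _
  rw [Nat.testBit_xor, Nat.testBit_two_pow]

theorem testBit_DM0 (v : Fin 4060) : DM0.testBit v = true ↔ D' v ∧ v ≠ x0 := by
  unfold DM0
  rw [testBit_xor_pow]
  have hv : v = x0 ↔ 2024 = v.val := ⟨fun h => by rw [h]; rfl, fun h => Fin.ext h.symm⟩
  rw [ne_eq, hv]
  by_cases h : 2024 = v.val
  · have h1 : DM.testBit v = true := by rw [testBit_DM, hv.2 h]; exact D'_x0
    rw [h1]; simp [h]
  · have h2 := testBit_DM v
    simp only [h, decide_false, Bool.xor_false, h2, not_false_iff, and_true]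

/-- level sets -/
def lev (x : Fin 4060) (c : ℕ) : Finset (Fin 4060) := univ.filter fun v => D' v ∧ v ≠ x ∧ q x v = c

theorem lev_le {c n : ℕ} (h : popc 12 (Nat.land (cntSet 12 4060 row WM c) DM0) = n) : (lev x0 c).card ≤ n := by
  rw [← h]
  refine le_trans (card_le_card ?_) (card_pts_le h4060 _)
  intro v hv
  unfold lev at hv
  rw [mem_filter] at hv
  rw [mem_pts, testBit_land', Bool.and_eq_true]
  exact ⟨(cnt_x0 c v).2 hv.2.2.2, (testBit_DM0 v).2 ⟨hv.2.1, hv.2.2.1⟩⟩

theorem q_cases_x0 {v : Fin 4060} (hv : D' v) (hne : v ≠ x0) :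
    q x0 v = 332 ∨ q x0 v = 348 ∨ q x0 v = 364 ∨ q x0 v = 380 := by
  have h := (testBit_DM0 v).2 ⟨hv, hne⟩
  rw [← call] at h
  have hl : ∀ a b i, (Nat.lor a b).testBit i = (a.testBit i || b.testBit i) := fun a b i => Nat.testBit_or a b i
  rw [hl, hl, hl, testBit_land', testBit_land', testBit_land', testBit_land'] at h
  simp only [Bool.or_eq_true, Bool.and_eq_true] at h
  rcases h with h | h | h | h
  · exact Or.inl ((cnt_x0 _ v).1 h.1)
  · exact Or.inr (Or.inl ((cnt_x0 _ v).1 h.1))
  · exact Or.inr (Or.inr (Or.inl ((cnt_x0 _ v).1 h.1)))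
  · exact Or.inr (Or.inr (Or.inr ((cnt_x0 _ v).1 h.1)))

theorem lev_x0 : (lev x0 332).card = 975 ∧ (lev x0 348).card = 650 ∧ (lev x0 364).card = 600 ∧
    (lev x0 380).card = 78 := by
  have h1 := lev_le p332
  have h2 := lev_le p348
  have h3 := lev_le p364
  have h4 := lev_le p380
  have h5 : (univ.filter fun u => D' u) ⊆ ((lev x0 332 ∪ lev x0 348) ∪ (lev x0 364 ∪ lev x0 380)) ∪ {x0} := by
    intro u hu
    rw [mem_filter] at hu
    by_cases h : u = x0
    · rw [mem_union, mem_singleton]; exact Or.inr h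
    · rw [mem_union, mem_union, mem_union, mem_union]
      left
      unfold lev
      simp only [mem_filter, mem_univ, true_and]
      rcases q_cases_x0 hu.2 h with h' | h' | h' | h'
      · exact Or.inl (Or.inl ⟨hu.2, h, h'⟩)
      · exact Or.inl (Or.inr ⟨hu.2, h, h'⟩)
      · exact Or.inr (Or.inl ⟨hu.2, h, h'⟩)
      · exact Or.inr (Or.inr ⟨hu.2, h, h'⟩)
  have h6 := card_le_card h5
  rw [card_D'] at h6
  have h7 := card_union_le ((lev x0 332 ∪ lev x0 348) ∪ (lev x0 364 ∪ lev x0 380)) {x0}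
  have h8 := card_union_le (lev x0 332 ∪ lev x0 348) (lev x0 364 ∪ lev x0 380)
  have h9 := card_union_le (lev x0 332) (lev x0 348)
  have h10 := card_union_le (lev x0 364) (lev x0 380)
  rw [card_singleton] at h7
  omega

theorem lev_act {h : H0} {s : Equiv.Perm (Fin 4060)} (a : Match h s) (x : Fin 4060) (c : ℕ) :
    lev (s x) c = (lev x c).map s.toEmbedding := by
  ext v
  rw [Finset.mem_map_equiv]
  unfold lev
  rw [mem_filter, mem_filter]
  have e1 : D' (s.symm v) ↔ D' v := by rw [← D'_act a, Equiv.apply_symm_apply]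
  have e2 : q x (s.symm v) = q (s x) v := by rw [← q_act a, Equiv.apply_symm_apply]
  have e3 : s.symm v ≠ x ↔ v ≠ s x := by
    rw [ne_eq, ne_eq, Equiv.symm_apply_eq]
  simp only [mem_univ, true_and, e1, e2, e3]

theorem card_lev {x : Fin 4060} (hx : D' x) : (lev x 332).card = 975 ∧ (lev x 348).card = 650 ∧
    (lev x 364).card = 600 ∧ (lev x 380).card = 78 := by
  obtain ⟨h, s, a, rfl⟩ := exists_match_to hx
  simp only [lev_act a, card_map]
  exact lev_x0

theorem q_cases {x v : Fin 4060} (hx : D' x) (hv : D' v) (hne : v ≠ x) :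
    q x v = 332 ∨ q x v = 348 ∨ q x v = 364 ∨ q x v = 380 := by
  obtain ⟨h, s, a, rfl⟩ := exists_match_to hx
  have e1 : D' (s.symm v) := by rw [← D'_act a, Equiv.apply_symm_apply]; exact hv
  have e2 : q x0 (s.symm v) = q (s x0) v := by rw [← q_act a, Equiv.apply_symm_apply]
  have e3 : s.symm v ≠ x0 := by rw [ne_eq, Equiv.symm_apply_eq]; exact hne
  rw [← e2]
  exact q_cases_x0 e1 e3

theorem ort_iff_x0 {v : Fin 4060} (hv : D' v) (hne : v ≠ x0) : ort x0 v ↔ q x0 v = 332 := by
  have h1 := (testBit_DM0 v).2 ⟨hv, hne⟩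
  have h2 := (testBit_DM v).2 hv
  have h3 : (Nat.land (cntSet 12 4060 row WM 332) DM0).testBit v = (Nat.land (row 2024) DM).testBit v := by
    rw [c332]
  rw [testBit_land', testBit_land', h1, h2, Bool.and_true, Bool.and_true] at h3
  rw [← cnt_x0, h3]
  exact Iff.rfl

theorem ort_iff {x v : Fin 4060} (hx : D' x) (hv : D' v) (hne : v ≠ x) : ort x v ↔ q x v = 332 := by
  obtain ⟨h, s, a, rfl⟩ := exists_match_to hx
  have e1 : D' (s.symm v) := by rw [← D'_act a, Equiv.apply_symm_apply]; exact hv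
  have e2 : q x0 (s.symm v) = q (s x0) v := by rw [← q_act a, Equiv.apply_symm_apply]
  have e3 : s.symm v ≠ x0 := by rw [ne_eq, Equiv.symm_apply_eq]; exact hne
  have e4 : ort x0 (s.symm v) ↔ ort (s x0) v := by rw [← a.ort, Equiv.apply_symm_apply]
  rw [← e2, ← e4]
  exact ort_iff_x0 e1 e3

/-! ### the sets `T x` -/

/-- octagon points not orthogonal to `x` -/
def T (x : Fin 4060) : Finset (Fin 1755) := univ.filter fun y => ¬ ort x (pi y)

theorem mem_T (x : Fin 4060) (y : Fin 1755) : y ∈ T x ↔ ¬ ort x (pi y) := by simp [T]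

theorem T_act {h : H0} {s : Equiv.Perm (Fin 4060)} (a : Match h s) (x : Fin 4060) (y : Fin 1755) :
    ρ h y ∈ T (s x) ↔ y ∈ T x := by
  rw [mem_T, mem_T, a.com, a.ort]

theorem T_of_chk {m x : ℕ} (hx : x < 4060) (h : chkG m x = true) : ofMask m = T ⟨x, hx⟩ := by
  unfold chkG at h
  rw [force_eq] at h
  ext y
  rw [mem_ofMask, mem_T]
  have h1 := beqB_eq ((allB_iff _ _).1 h y.val y.2)
  change Nat.testBit m (look LAB y) = _ at h1
  rw [h1]
  have h2 : ort ⟨x, hx⟩ (pi y) ↔ Nat.testBit (row x) (look PI y) = true := Iff.rfl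
  rw [h2]
  cases Nat.testBit (row x) (look PI y) <;> simp

theorem good_T {m : ℕ} (hm : m ∈ [G0, G1, G2, G3]) : ∃ x, D' x ∧ ofMask m = T x := by
  have hk := xk_in
  rw [Bool.and_eq_true, Bool.and_eq_true] at hk
  simp only [List.mem_cons, List.not_mem_nil, or_false] at hm
  rcases hm with rfl | rfl | rfl | rfl
  · exact ⟨⟨2024, by norm_num⟩, D'_x0, T_of_chk _ g0⟩
  · exact ⟨⟨2779, by norm_num⟩, (testBit_DM ⟨2779, by norm_num⟩).1 hk.1, T_of_chk _ g1⟩
  · exact ⟨⟨3099, by norm_num⟩, (testBit_DM ⟨3099, by norm_num⟩).1 hk.2.1, T_of_chk _ g2⟩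
  · exact ⟨⟨3723, by norm_num⟩, (testBit_DM ⟨3723, by norm_num⟩).1 hk.2.2, T_of_chk _ g3⟩

theorem card_T_inter (x v : Fin 4060) : (T x ∩ T v).card + 1755 = (T x).card + (T v).card + q x v := by
  have h1 : (T x)ᶜ = univ.filter fun y => ort x (pi y) := by
    ext y; rw [mem_compl, mem_T, mem_filter]; simp
  have h2 : (T v)ᶜ = univ.filter fun y => ort v (pi y) := by
    ext y; rw [mem_compl, mem_T, mem_filter]; simp
  have h3 : ((T x)ᶜ ∩ (T v)ᶜ).card = q x v := by
    rw [q_eq, h1, h2]
    congr 1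
    ext y
    simp
  have h4 : ((T x ∪ T v)ᶜ).card = q x v := by rw [← h3, compl_union]
  rw [card_compl, Fintype.card_fin] at h4
  have h5 := card_union_add_card_inter (T x) (T v)
  have h6 : (T x ∪ T v).card ≤ 1755 := by
    have := card_le_univ (T x ∪ T v)
    rwa [Fintype.card_fin] at this
  omega

/-! ### opposite points -/

theorem ort_pi_y0 (y : Fin 1755) : ort (pi y0) (pi y) ↔ 1 ≤ cl y ∧ cl y ≤ 3 := by
  have h1 := beqB_eq ((allB_iff _ _).1 pi_rowPi y.val y.2)
  have h2 : ort (pi y0) (pi y) ↔ Nat.testBit (row (look PI 0)) (look PI y.val) = true := Iff.rfl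
  rw [h2, h1]
  have h3 : (Bool.rec false (Nat.ble y.val 730) (Nat.ble 1 y.val) : Bool) = true ↔ 1 ≤ y.val ∧ y.val ≤ 730 := by
    rw [and3, Bool.and_eq_true, Nat.ble_eq, Nat.ble_eq]
  rw [h3]
  have c0 := (chkRange_spec rng0).2 y.val y.2
  have c4 := (chkRange_spec rng4).2 y.val y.2
  have hle := cl_le y
  change (cl y = 0 ↔ _) at c0
  change (cl y = 4 ↔ _) at c4
  constructor
  · rintro ⟨h4, h5⟩
    have n0 : cl y ≠ 0 := fun h => by have := c0.1 h; omega
    have n4 : cl y ≠ 4 := fun h => by have := c4.1 h; omega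
    omega
  · rintro ⟨h4, h5⟩
    have n0 : ¬ (0 ≤ y.val ∧ y.val < 0 + 1) := fun h => by have := c0.2 h; omega
    have n4 : ¬ (731 ≤ y.val ∧ y.val < 731 + 1024) := fun h => by have := c4.2 h; omega
    have := y.2
    omega

theorem testBit_OM (u : Fin 4060) : OM.testBit u = true ↔ ∃ y, cl y = 4 ∧ pi y = u := by
  unfold OM
  rw [orS_testBit]
  have hp : ∀ k, (Nat.pow 2 k).testBit u.val = true ↔ k = u.val := by
    intro k
    change (2 ^ k).testBit u.val = true ↔ _
    rw [Nat.testBit_two_pow]; simp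
  simp only [orS_testBit, hp]
  constructor
  · rintro ⟨k, hk, j, hj, h⟩
    refine ⟨⟨731 + (32 * k + j), by omega⟩, ?_, Fin.ext h⟩
    exact ((chkRange_spec rng4).2 (731 + (32 * k + j)) (by omega)).2 (by omega)
  · rintro ⟨y, hy, h⟩
    have h1 := ((chkRange_spec rng4).2 y.val y.2).1 hy
    refine ⟨(y.val - 731) / 32, by omega, (y.val - 731) % 32, by omega, ?_⟩
    have h2 : Nat.add 731 (Nat.add (Nat.mul 32 ((y.val - 731) / 32)) ((y.val - 731) % 32)) = y.val := by
      change 731 + (32 * ((y.val - 731) / 32) + (y.val - 731) % 32) = y.val; omega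
    rw [h2, ← h]; rfl

theorem testBit_xor' (a b i : ℕ) : (Nat.xor a b).testBit i = (a.testBit i ^^ b.testBit i) :=
  Nat.testBit_xor a b i

theorem opp_count {x : Fin 4060} (hx : D' x) (h : y0 ∈ T x) :
    (univ.filter fun y => cl y = 4 ∧ y ∈ T x).card = 576 := by
  rw [mem_T] at h
  have hM : (Nat.xor DM (Nat.land DM (row (look PI 0)))).testBit x = true := by
    rw [testBit_xor', testBit_land']
    have h1 := (testBit_DM x).2 hx
    have h2 : ¬ (row (look PI 0)).testBit x.val = true := fun h2 => h ((ort_symm _ _).1 h2)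
    rw [Bool.not_eq_true] at h2
    rw [h1, h2]; rfl
  rw [← opp, testBit_land', Bool.and_eq_true] at hM
  have h3 := hM.1
  rw [testBit_cntSet h4060, decide_eq_true_eq, sum_eq_card (P := fun u => ∃ y, cl y = 4 ∧ pi y = u) OM x testBit_OM] at h3
  have h4 : (univ.filter fun u => (∃ y, cl y = 4 ∧ pi y = u) ∧ ort x u) =
      (univ.filter fun y => cl y = 4 ∧ ort x (pi y)).map ⟨pi, pi_injective⟩ := by
    ext u
    rw [mem_filter, mem_map]
    constructor
    · rintro ⟨_, ⟨y, hy, rfl⟩, h⟩
      exact ⟨y, by rw [mem_filter]; exact ⟨mem_univ _, hy, h⟩, rfl⟩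
    · rintro ⟨y, hy, rfl⟩
      rw [mem_filter] at hy
      exact ⟨mem_univ _, ⟨y, hy.2.1, rfl⟩, hy.2.2⟩
  rw [h4, card_map] at h3
  have h5 := card_cl 4 (by norm_num)
  have h6 := card_filter_add_card_filter_not (s := univ.filter fun y => cl y = 4) (fun y => ort x (pi y))
  rw [filter_filter, filter_filter, h3, h5] at h6
  have h7 : (univ.filter fun y => cl y = 4 ∧ y ∈ T x) = univ.filter fun y => cl y = 4 ∧ ¬ ort x (pi y) := by
    ext y; simp only [mem_filter, mem_univ, true_and, mem_T]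
  rw [h7]
  have h8 : sz 4 = 1024 := rfl
  rw [h8] at h6
  omega

end Cfsg.Agent.SporRec.Ru.Counts
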