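import Cfsg.Agent.SporRec.Ru.CertData_mg
import Cfsg.Agent.SporRec.R3.SchemeK
set_option linter.all false

/-! Parameters of the configuration and the equation `|S d ∩ N₁(y)| = [y ∈ S d] + 5`. -/

set_option autoImplicit false
set_option maxRecDepth 4000
set_option linter.unusedSectionVars false

namespace Cfsg.Agent.SporRec.Ru.Eqn

open Finset Cfsg.Agent.SporRec.R3.Config Cfsg.Agent.SporRec.R3.YPart Cfsg.Agent.SporRec.R3.Kernel
open Cfsg.Agent.SporRec.R3.Scheme Cfsg.Agent.SporRec.R3.SchemeK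
open Cfsg.Agent.SporRec.Ru.Data Cfsg.Agent.SporRec.Ru.Rep Cfsg.Agent.SporRec.Ru.Point
open Cfsg.Agent.ChevalleyStructure.Tits.Order

variable {Ω : Type*} [Fintype Ω] [DecidableEq Ω] {C : Conf Ω H0}

theorem A_class (M : YMap C ρ) (y : Fin 1755) (hy : y ∈ M.A y0) (z : Fin 1755) (h : cl y = cl z) : z ∈ M.A y0 := by
  obtain ⟨s, hs, hs2⟩ := stabTrans y z h
  rw [← hs2]
  have := M.A_act s y0 y
  rw [show ρ s y0 = y0 from hs] at this
  exact this.2 hy

theorem card_Λ (M : YMap C ρ) : C.Λ.card = 1755 := by rw [M.card_Λ, Fintype.card_fin]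

/-- if `A` is empty, the configuration is imprimitive -/
theorem A_nonempty (hΔ : C.Δ.card = 2304) (hΩ : Fintype.card Ω = 4060) (M : YMap C ρ) : M.A y0 ≠ ∅ := by
  classical
  intro hA
  have hmu := M.card_A y0
  rw [hA, card_empty, hΔ, zero_add] at hmu
  have hN : ∀ x ∈ C.Λ, C.N x = C.Δ := by
    intro x hx
    have h1 : C.Δ ⊆ C.N x := by
      have h2 : (C.Δ.filter fun d => C.adj d x) = C.Δ := by
        apply Finset.eq_of_subset_of_card_le (filter_subset _ _)
        rw [C.card_Δ_adj hx, hmu, hΔ]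
      intro d hd
      rw [← h2, mem_filter] at hd
      rw [C.mem_N]
      exact C.adj_symm hd.2
    exact (Finset.eq_of_subset_of_card_le h1 (by rw [C.card_N])).symm
  have hfib : (univ.filter fun x => C.N x = C.N C.α).card = 1756 := by
    have : (univ.filter fun x => C.N x = C.N C.α) = insert C.α C.Λ := by
      ext x
      rw [mem_filter, mem_insert, C.N_alpha]
      constructor
      · rintro ⟨_, h⟩
        rcases C.cover x with h1 | h1 | h1
        · exact Or.inl h1
        · exfalso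
          have h2 : C.α ∈ C.N x := by rw [C.mem_N]; exact C.adj_symm ((C.adj_alpha x).2 h1)
          rw [h] at h2
          exact C.αΔ h2
        · exact Or.inr h1
      · rintro (h | h)
        · exact ⟨mem_univ _, by rw [h, C.N_alpha]⟩
        · exact ⟨mem_univ _, hN x h⟩
    rw [this, card_insert_of_notMem C.αΛ, card_Λ M]
  have hfib2 : ∀ y, (univ.filter fun x => C.N x = C.N y).card = 1756 := by
    intro y
    obtain ⟨g, hg, hgy⟩ := C.trans C.α y
    rw [← hfib]
    have : (univ.filter fun x => C.N x = C.N y) =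
        (univ.filter fun x => C.N x = C.N C.α).map g.toEmbedding := by
      ext x
      rw [Finset.mem_map_equiv, mem_filter, mem_filter, ← hgy, C.N_smul hg]
      have e1 : C.N x = (C.N (g⁻¹ x)).map g.toEmbedding := by
        rw [← C.N_smul hg]; simp
      rw [e1]
      simp only [mem_univ, true_and]
      constructor
      · intro h; exact Finset.map_injective _ h
      · intro h
        have : C.N (g⁻¹ x) = C.N C.α := h
        rw [this]
    rw [this, card_map]
  have h1 := Finset.card_eq_sum_card_fiberwise (f := C.N) (s := (univ : Finset Ω)) (t := univ.image C.N)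
    (fun x _ => mem_coe.2 (mem_image_of_mem _ (mem_univ x)))
  rw [Finset.sum_congr rfl (g := fun _ => 1756)] at h1
  · rw [sum_const, card_univ, hΩ, smul_eq_mul] at h1
    omega
  · intro s hs
    rw [mem_image] at hs
    obtain ⟨y, _, rfl⟩ := hs
    exact hfib2 y

theorem combos2 : ∀ e : Fin 5 → Bool, e 0 = false →
    (∑ c : Fin 5, if e c = true then sz c else 0) % 256 = 0 →
    (∑ c : Fin 5, if e c = true then sz c else 0) ≠ 0 →
    (∑ c : Fin 5, if e c = true then sz c else 0) = 1024 ∧ e 4 = true ∧ e 1 = false ∧ e 2 = false ∧ e 3 = false := by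
  decide +kernel

theorem params (hΔ : C.Δ.card = 2304) (hΩ : Fintype.card Ω = 4060) (M : YMap C ρ) :
    (∀ y, y ∈ M.A y0 ↔ cl y = 4) ∧ C.mu = 1280 ∧ C.lam = 1328 := by
  obtain ⟨e, he1, he2⟩ := card_union (M.A y0) (fun y hy z h => A_class M y hy z h)
  have h0 : e 0 = false := by
    by_contra hc
    rw [Bool.not_eq_false] at hc
    have := (he1 y0).2 ⟨by rw [cl_y0]; norm_num, by
      have : (⟨cl y0, by rw [cl_y0]; norm_num⟩ : Fin 5) = 0 := Fin.ext cl_y0
      rw [this]; exact hc⟩
    exact M.self_notMem_A y0 this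
  have hcA := M.card_A y0
  obtain ⟨d, hd⟩ := C.neΔ
  have h1 := C.card_Λ_adj hd
  have h2 := C.k_l_identity _ h1
  rw [card_Λ M, hΔ] at h2
  rw [hΔ] at hcA h1
  obtain ⟨t, ht⟩ : ∃ t, (C.Λ.filter fun z => C.adj d z).card = t := ⟨_, rfl⟩
  rw [ht] at h1 h2
  have hmod : (M.A y0).card % 256 = 0 := by omega
  have hne : (M.A y0).card ≠ 0 := by
    rw [ne_eq, card_eq_zero]
    exact A_nonempty hΔ hΩ M
  have h3 := combos2 e h0 (by rw [← he2]; exact hmod) (by rw [← he2]; exact hne)
  rw [← he2] at h3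
  obtain ⟨h3, h4, h5, h6, h7⟩ := h3
  refine ⟨?_, by omega, by omega⟩
  intro y
  rw [he1]
  constructor
  · rintro ⟨hy, hy2⟩
    have hc : ∀ c : Fin 5, e c = true → c = 4 := by
      intro c hc
      fin_cases c
      · exact absurd hc (by simp [h0])
      · exact absurd hc (by simp [h5])
      · exact absurd hc (by simp [h6])
      · exact absurd hc (by simp [h7])
      · rfl
    have := hc _ hy2
    exact congrArg Fin.val this
  · intro h
    refine ⟨by omega, ?_⟩
    have : (⟨cl y, by omega⟩ : Fin 5) = 4 := Fin.ext h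
    rw [this]; exact h4

/-! ### the numbers `m` -/

/-- values of `m` on the classes 0, 1, 2 -/
noncomputable def mval (c : ℕ) : ℕ :=
  Nat.rec (motive := fun _ => ℕ) 1280 (fun c1 _ => Nat.rec (motive := fun _ => ℕ) 768
    (fun _ _ => 640) c1) c

theorem cnt4_1 : cntC 1755 tab cls 4 (winv inv [Ltr.m]) = 512 := by decide +kernel
theorem cnt4_2 : cntC 1755 tab cls 4 (winv inv [Ltr.m, Ltr.c, Ltr.m]) = 640 := by decide +kernel
theorem rep1 : cls (evalW tab [Ltr.m] 0) = 1 := by decide +kernel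
theorem rep2 : cls (evalW tab [Ltr.m, Ltr.c, Ltr.m] 0) = 2 := by decide +kernel

/-- words mapping `0` to the ten collinear points -/
def WL : List (List Ltr) := [[.m], [.a, .m], [.c, .m], [.c, .a, .m], [.C, .m], [.c, .c, .m], [.C, .a, .m],
  [.c, .c, .a, .m], [.B, .c, .m], [.B, .c, .a, .m]]

/-- the word number `j` -/
def Wq (j : ℕ) : List Ltr := WL.getD j []

theorem chk_rows : chkRows tab inv cls mval 2 Wq 1 10 7168 = true := by decide +kernel

theorem m_val (hΔ : C.Δ.card = 2304) (hΩ : Fintype.card Ω = 4060) (M : YMap C ρ) (z : Fin 1755)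
    (hz : cls z.val ≤ 2) : M.m y0 z = mval (cls z.val) := by
  obtain ⟨hA, hmu, hlam⟩ := params hΔ hΩ M
  have hA' : M.A y0 = D (fun y : Fin 1755 => cls y.val) 4 := by
    ext y; rw [hA, mem_D]; rfl
  have hcn : cl z ≠ 0 → C.cn (M.f y0) (M.f z) = 1280 := by
    intro h0
    rw [← hmu]
    apply C.cn_nonadj
    · intro h
      have := M.inj h
      rw [← this, cl_y0] at h0
      exact h0 rfl
    · intro h
      rw [← M.mem_A, hA] at h
      have : cl z = cls z.val := rfl
      omega
  have hst : StabTrans ρ y0 (fun y : Fin 1755 => cls y.val) := stabTrans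
  have h3 : cls z.val = 0 ∨ cls z.val = 1 ∨ cls z.val = 2 := by omega
  rcases h3 with h3 | h3 | h3
  · have : z = y0 := cl_zero h3
    rw [this, M.m_self, hmu]
    have : cls y0.val = 0 := cl_y0
    rw [this]; rfl
  · have e1 := m_class M hst hA' (c := 1) (p := 512) (gw gen [Ltr.m])
      (by show cls (ρ (gw gen [Ltr.m]) y0 : Fin 1755).val = 1
          rw [evalW_spec gen ρ tab hgen]; exact rep1)
      (by rw [← cnt4_1]; exact cntC_spec tab gen ρ hgen inv hinv cls 4 [Ltr.m]) z h3
    rw [hcn (by show cls z.val ≠ 0; omega)] at e1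
    rw [h3]
    show M.m y0 z = 768
    omega
  · have e1 := m_class M hst hA' (c := 2) (p := 640) (gw gen [Ltr.m, Ltr.c, Ltr.m])
      (by show cls (ρ (gw gen [Ltr.m, Ltr.c, Ltr.m]) y0 : Fin 1755).val = 2
          rw [evalW_spec gen ρ tab hgen]; exact rep2)
      (by rw [← cnt4_2]; exact cntC_spec tab gen ρ hgen inv hinv cls 4 [Ltr.m, Ltr.c, Ltr.m]) z h3
    rw [hcn (by show cls z.val ≠ 0; omega)] at e1
    rw [h3]
    show M.m y0 z = 640
    omega

theorem eqn0 (hΔ : C.Δ.card = 2304) (hΩ : Fintype.card Ω = 4060) (M : YMap C ρ) :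
    ∀ d ∈ C.Δ, ((M.S d ∩ D (fun y : Fin 1755 => cls y.val) 1).card : ℤ) =
      1 * (if y0 ∈ M.S d then 1 else 0) + 5 := by
  obtain ⟨hA, hmu, hlam⟩ := params hΔ hΩ M
  apply eqn M (cls := fun y : Fin 1755 => cls y.val) mval (fun c => c ≤ 2) (m_val hΔ hΩ M) 1
    (by norm_num) 10 7168 (card_D rng1)
  · exact chkRows_spec hn tab gen ρ hgen inv hinv rng1 chk_rows
  · rw [hmu, hΔ]
    have : mval 1 = 768 := rfl
    rw [this]
    norm_num

/-- the equation at the point `h y0` -/
theorem eqn_h (hΔ : C.Δ.card = 2304) (hΩ : Fintype.card Ω = 4060) (M : YMap C ρ) (h : H0) (d : Ω)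
    (hd : d ∈ C.Δ) : ((D (fun y : Fin 1755 => cls y.val) 1).filter fun q => ρ h q ∈ M.S d).card =
      (if ρ h y0 ∈ M.S d then 6 else 5) := by
  have := eqn_transport M (eqn0 hΔ hΩ M) h d hd
  split_ifs with h1
  · rw [if_pos h1] at this; omega
  · rw [if_neg h1] at this; omega

end Cfsg.Agent.SporRec.Ru.Eqn
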