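import Cfsg.Agent.SporRec.Ru.SolveRu
set_option linter.all false

/-! The spurious solutions are excluded by elements of order 13. -/

set_option autoImplicit false
set_option maxRecDepth 4000
set_option linter.unusedSectionVars false

namespace Cfsg.Agent.SporRec.Ru.Exclude

open Finset Cfsg.Agent.SporRec.R3.Config Cfsg.Agent.SporRec.R3.YPart Cfsg.Agent.SporRec.R3.Kernel
open Cfsg.Agent.SporRec.R3.Scheme Cfsg.Agent.SporRec.R3.SchemeK
open Cfsg.Agent.SporRec.Ru.Data Cfsg.Agent.SporRec.Ru.Rep Cfsg.Agent.SporRec.Ru.Point Cfsg.Agent.SporRec.Ru.Eqn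
open Cfsg.Agent.SporRec.Ru.CertData Cfsg.Agent.SporRec.Ru.SolveRu
open Cfsg.Agent.ChevalleyStructure.Tits.Order

/-! ### collinearity -/

/-- collinearity of different points -/
def R (y z : Fin 1755) : Prop := ∃ h, ρ h y0 = y ∧ cl (ρ h⁻¹ z) = 1

theorem R_act (g : H0) (y z : Fin 1755) : R (ρ g y) (ρ g z) ↔ R y z := by
  constructor
  · rintro ⟨h, h1, h2⟩
    refine ⟨g⁻¹ * h, ?_, ?_⟩
    · rw [map_mul, Equiv.Perm.mul_apply, h1, map_inv]; simp
    · rw [mul_inv_rev, inv_inv, map_mul, Equiv.Perm.mul_apply]; exact h2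
  · rintro ⟨h, h1, h2⟩
    refine ⟨g * h, ?_, ?_⟩
    · rw [map_mul, Equiv.Perm.mul_apply, h1]
    · rw [mul_inv_rev, map_mul, Equiv.Perm.mul_apply]
      have : ρ g⁻¹ (ρ g z) = z := by rw [map_inv]; simp
      rw [this]; exact h2

theorem R_y0 (z : Fin 1755) : R y0 z ↔ cl z = 1 := by
  constructor
  · rintro ⟨h, h1, h2⟩
    have := cl_inv h⁻¹ (by rw [map_inv, Equiv.Perm.inv_eq_iff_eq]; exact h1.symm) z
    rw [this] at h2
    exact h2
  · intro h
    exact ⟨1, by rw [map_one]; rfl, by rw [inv_one, map_one]; exact h⟩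

theorem R_of {h : H0} {y : Fin 1755} (hy : ρ h y0 = y) (z : Fin 1755) : R y z ↔ cl (ρ h⁻¹ z) = 1 := by
  rw [← R_y0, ← R_act h y0 (ρ h⁻¹ z), hy]
  have : ρ h (ρ h⁻¹ z) = z := by rw [map_inv]; simp
  rw [this]

theorem R_uniq {z w w' : Fin 1755} (hz : cl z = 1) (hw : cl w = 1) (hw' : cl w' = 1) (h : R z w)
    (h' : R z w') : w = w' := by
  obtain ⟨g, hg⟩ := Rep.trans y0 z
  have h1 := card_common g (by rw [hg]; exact hz)
  rw [card_eq_one] at h1
  obtain ⟨a, ha⟩ := h1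
  have m1 : w ∈ univ.filter fun w => cl w = 1 ∧ cl (ρ g⁻¹ w) = 1 := by
    rw [mem_filter]; exact ⟨mem_univ _, hw, (R_of hg w).1 h⟩
  have m2 : w' ∈ univ.filter fun w => cl w = 1 ∧ cl (ρ g⁻¹ w) = 1 := by
    rw [mem_filter]; exact ⟨mem_univ _, hw', (R_of hg w').1 h'⟩
  rw [ha, mem_singleton] at m1 m2
  rw [m1, m2]

/-- the third point of the line through `0` and the point number `s + 1` -/
def pt (s : ℕ) : ℕ := [1, 0, 3, 2, 6, 7, 4, 5, 9, 8].getD s 0

theorem chk_pt : allB (fun s => Nat.beq (cls (evalW tab (winv inv (Wq s)) (Nat.succ (pt s)))) 1) 10 = true := by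
  decide +kernel

theorem chk_pt_lt : allB (fun s => Nat.ble (Nat.succ (pt s)) 10) 10 = true := by decide +kernel

theorem chk_Wq : allB (fun s => Nat.beq (evalW tab (Wq s) 0) (Nat.succ s)) 10 = true := by decide +kernel

/-- point number `s + 1` -/
def pp (s : ℕ) (hs : s < 10) : Fin 1755 := ⟨s + 1, by omega⟩

theorem pt_lt {s : ℕ} (hs : s < 10) : pt s < 10 := by
  have := (allB_iff _ _).1 chk_pt_lt s hs
  rw [Nat.ble_eq] at this
  exact this

theorem cl_pp (s : ℕ) (hs : s < 10) : cl (pp s hs) = 1 :=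
  ((chkRange_spec rng1).2 (s + 1) (by omega)).2 (by omega)

theorem eq_pp {z : Fin 1755} (hz : cl z = 1) : ∃ s, ∃ hs : s < 10, z = pp s hs := by
  have h := ((chkRange_spec rng1).2 z.val z.2).1 hz
  exact ⟨z.val - 1, by omega, Fin.ext (by show z.val = z.val - 1 + 1; omega)⟩

theorem R_pp (s : ℕ) (hs : s < 10) : R (pp s hs) (pp (pt s) (pt_lt hs)) := by
  have h1 := (allB_iff _ _).1 chk_Wq s hs
  rw [Nat.beq_eq] at h1
  have h2 := evalW_spec gen ρ tab hgen (Wq s) y0
  have h3 : ρ (gw gen (Wq s)) y0 = pp s hs := Fin.ext (by rw [h2]; exact h1)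
  rw [R_of h3]
  have h4 := evalW_spec gen ρ tab hgen (winv inv (Wq s)) (pp (pt s) (pt_lt hs))
  rw [gw_winv gen inv hinv] at h4
  unfold cl
  rw [h4]
  have h5 := (allB_iff _ _).1 chk_pt s hs
  rw [Nat.beq_eq] at h5
  exact h5

/-! ### the set `U` -/

/-- points outside `S` on a line disjoint from `S` -/
def inU (S : Finset (Fin 1755)) (y : Fin 1755) : Prop :=
  y ∉ S ∧ ∃ z w, z ∉ S ∧ w ∉ S ∧ R y z ∧ R y w ∧ R z w

theorem inU_act (S : Finset (Fin 1755)) (g : H0) (hg : ∀ y, ρ g y ∈ S ↔ y ∈ S) (y : Fin 1755) :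
    inU S (ρ g y) ↔ inU S y := by
  constructor
  · rintro ⟨h1, z, w, hz, hw, h2, h3, h4⟩
    have ez : ρ g (ρ g⁻¹ z) = z := by rw [map_inv]; simp
    have ew : ρ g (ρ g⁻¹ w) = w := by rw [map_inv]; simp
    refine ⟨fun h => h1 ((hg y).2 h), ρ g⁻¹ z, ρ g⁻¹ w, ?_, ?_, ?_, ?_, ?_⟩
    · rw [← hg, ez]; exact hz
    · rw [← hg, ew]; exact hw
    · rw [← R_act g, ez]; exact h2
    · rw [← R_act g, ew]; exact h3
    · rw [← R_act g, ez, ew]; exact h4
  · rintro ⟨h1, z, w, hz, hw, h2, h3, h4⟩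
    exact ⟨fun h => h1 ((hg y).1 h), ρ g z, ρ g w, fun h => hz ((hg z).1 h), fun h => hw ((hg w).1 h),
      (R_act g _ _).2 h2, (R_act g _ _).2 h3, (R_act g _ _).2 h4⟩

/-- kernel version of `inU` for the point with label `i` -/
noncomputable def uB (m i : ℕ) : Bool :=
  Bool.rec (anyS (fun s => Bool.rec (Bool.rec true false (Nat.testBit m (look EQ (Nat.add (Nat.mul 10 i) (pt s)))))
    false (Nat.testBit m (look EQ (Nat.add (Nat.mul 10 i) s)))) 10)
    false (Nat.testBit m (look LAB (evalW tab (HW i) 0)))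

theorem inU_rp (m : ℕ) (i : ℕ) (hi : i < 75) : inU (ofMask m) (rp i) ↔ uB m i = true := by
  have hEQ : ∀ s (hs : s < 10), (ρ (gw gen (HW i)) (pp s hs) ∈ ofMask m) ↔
      m.testBit (look EQ (Nat.add (Nat.mul 10 i) s)) = true := by
    intro s hs
    have h5 := (allB_iff _ _).1 ((allB_iff _ _).1 chk_EQ i hi) s hs
    rw [Nat.beq_eq] at h5
    rw [mem_ofMask, ← h5, evalW_spec gen ρ tab hgen]
    exact Iff.rfl
  have hrp : (rp i ∈ ofMask m) ↔ m.testBit (look LAB (evalW tab (HW i) 0)) = true := by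
    rw [mem_ofMask, rp_val]
  have hu : uB m i = true ↔ (rp i ∉ ofMask m) ∧ ∃ s, ∃ hs : s < 10, ρ (gw gen (HW i)) (pp s hs) ∉ ofMask m ∧
      ρ (gw gen (HW i)) (pp (pt s) (pt_lt hs)) ∉ ofMask m := by
    unfold uB
    rw [hrp]
    cases hb : m.testBit (look LAB (evalW tab (HW i) 0)) with
    | true =>
      constructor
      · intro h; exact absurd h Bool.false_ne_true
      · rintro ⟨h, _⟩; exact absurd rfl h
    | false =>
      constructor
      · intro h
        refine ⟨Bool.false_ne_true, ?_⟩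
        have h' := (anyS_iff _ _).1 h
        obtain ⟨s, hs, h1⟩ := h'
        refine ⟨s, hs, ?_, ?_⟩
        · rw [hEQ]
          intro h2
          rw [h2] at h1
          exact Bool.false_ne_true h1
        · rw [hEQ]
          intro h2
          rw [h2] at h1
          revert h1
          cases m.testBit (look EQ (Nat.add (Nat.mul 10 i) s)) <;> exact Bool.false_ne_true
      · rintro ⟨_, s, hs, h1, h2⟩
        refine (anyS_iff _ _).2 ⟨s, hs, ?_⟩
        rw [hEQ, Bool.not_eq_true] at h1 h2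
        rw [h1, h2]
  rw [hu]
  constructor
  · rintro ⟨h1, z, w, hz, hw, h2, h3, h4⟩
    refine ⟨h1, ?_⟩
    set g := gw gen (HW i) with hg
    have hgy : ρ g y0 = rp i := rfl
    have ez : ρ g (ρ g⁻¹ z) = z := by rw [map_inv]; simp
    have ew : ρ g (ρ g⁻¹ w) = w := by rw [map_inv]; simp
    have c1 := (R_of hgy z).1 h2
    have c2 := (R_of hgy w).1 h3
    obtain ⟨s, hs, hs2⟩ := eq_pp c1
    refine ⟨s, hs, ?_, ?_⟩
    · rw [← hs2, ez]; exact hz
    · have h5 : R (ρ g⁻¹ z) (ρ g⁻¹ w) := by rw [← R_act g, ez, ew]; exact h4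
      rw [hs2] at h5
      have h6 := R_uniq (cl_pp s hs) c2 (cl_pp (pt s) (pt_lt hs)) h5 (R_pp s hs)
      rw [← h6, ew]; exact hw
  · rintro ⟨h1, s, hs, h2, h3⟩
    refine ⟨h1, _, _, h2, h3, ?_, ?_, ?_⟩
    · rw [R_of (h := gw gen (HW i)) (y := rp i) rfl]
      have : ρ (gw gen (HW i))⁻¹ (ρ (gw gen (HW i)) (pp s hs)) = pp s hs := by rw [map_inv]; simp
      rw [this]; exact cl_pp s hs
    · rw [R_of (h := gw gen (HW i)) (y := rp i) rfl]
      have : ρ (gw gen (HW i))⁻¹ (ρ (gw gen (HW i)) (pp (pt s) (pt_lt hs))) = pp (pt s) (pt_lt hs) := by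
        rw [map_inv]; simp
      rw [this]; exact cl_pp _ _
    · rw [R_act]; exact R_pp s hs

/-- masks of `U` -/
noncomputable def chkU (m u : ℕ) : Bool :=
  allB (fun i => Bool.rec (Bool.rec true false (uB m i)) (uB m i) (Nat.testBit u i)) 75

theorem chkU_spec {m u : ℕ} (h : chkU m u = true) (i : ℕ) (hi : i < 75) : uB m i = true ↔ u.testBit i = true := by
  have h1 := (allB_iff _ _).1 h i hi
  cases hb : u.testBit i with
  | true =>
    have e : Nat.testBit u i = true := hb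
    rw [e] at h1
    exact ⟨fun _ => rfl, fun _ => h1⟩
  | false =>
    have e : Nat.testBit u i = false := hb
    rw [e] at h1
    constructor
    · intro h2
      rw [h2] at h1
      exact absurd h1 Bool.false_ne_true
    · intro h2; exact absurd h2 Bool.false_ne_true

theorem chkU0 : chkU B0 U0 = true := by decide +kernel
theorem chkU1 : chkU B1 U1 = true := by decide +kernel
theorem chkU2 : chkU B2 U2 = true := by decide +kernel
theorem chkU3 : chkU B3 U3 = true := by decide +kernel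

/-- size of a set given by a mask -/
noncomputable def szM (u : ℕ) : ℕ := sumB (fun y => b2n (Nat.testBit u (look LAB y))) 1755

theorem szU0 : szM U0 = 600 := by decide +kernel
theorem szU1 : szM U1 = 600 := by decide +kernel
theorem szU2 : szM U2 = 600 := by decide +kernel
theorem szU3 : szM U3 = 600 := by decide +kernel

theorem card_ofMask (u : ℕ) : (ofMask u).card = szM u := by
  unfold szM
  rw [← card_filter_fin]
  rfl

open scoped Classical in
theorem card_inU {m u : ℕ} (h : chkU m u = true) (h1 : ∀ y, ρ e1 y ∈ ofMask m ↔ y ∈ ofMask m)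
    (h2 : ∀ y, ρ (e2 ^ 2) y ∈ ofMask m ↔ y ∈ ofMask m) :
    (univ.filter fun y => inU (ofMask m) y).card = szM u := by
  rw [← card_ofMask]
  congr 1
  ext y
  rw [mem_filter, mem_ofMask, ← chkU_spec h _ (lab_lt y), ← inU_rp m _ (lab_lt y)]
  simp only [mem_univ, true_and]
  exact inv_lab (S := inU (ofMask m)) (inU_act _ e1 h1) (inU_act _ (e2 ^ 2) h2) y

/-! ### elements of order 13 -/

theorem dvd_of_perm {X : Type*} [Fintype X] (j : Equiv.Perm X) (hj : j ^ 13 = 1) (hf : ∀ x, j x ≠ x) :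
    13 ∣ Fintype.card X := by
  have h13 : Fact (Nat.Prime 13) := ⟨by norm_num⟩
  have hp : IsPGroup 13 (Subgroup.zpowers j) := by
    rintro ⟨x, hx⟩
    obtain ⟨k, rfl⟩ := Subgroup.mem_zpowers_iff.1 hx
    refine ⟨1, Subtype.ext ?_⟩
    show (j ^ k) ^ 13 ^ 1 = 1
    rw [pow_one, ← zpow_natCast, ← zpow_mul, mul_comm, zpow_mul, zpow_natCast, hj, one_zpow]
  by_contra hc
  rw [← Nat.card_eq_fintype_card] at hc
  obtain ⟨x, hx⟩ := hp.nonempty_fixed_point_of_prime_not_dvd_card X hc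
  exact hf x (hx ⟨j, Subgroup.mem_zpowers j⟩)

variable {Ω : Type*} [Fintype Ω] [DecidableEq Ω] {C : Conf Ω H0}

theorem exists_order13 (hΔ : C.Δ.card = 2304) (d : Ω) (hd : d ∈ C.Δ) :
    ∃ j : H0, orderOf j = 13 ∧ C.act j d = d := by
  let _ : MulAction H0 {x // x ∈ C.Δ} := actΔ C
  have h1 := MulAction.index_stabilizer H0 (⟨d, hd⟩ : {x // x ∈ C.Δ})
  have h2 : MulAction.orbit H0 (⟨d, hd⟩ : {x // x ∈ C.Δ}) = Set.univ := by
    ext x
    simp only [Set.mem_univ, iff_true]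
    obtain ⟨h, hh⟩ := C.tΔ d hd x x.2
    exact ⟨h, Subtype.ext hh⟩
  rw [h2, Set.ncard_univ, Nat.card_eq_fintype_card, Fintype.card_coe, hΔ] at h1
  have h3 := Subgroup.card_mul_index (MulAction.stabilizer H0 (⟨d, hd⟩ : {x // x ∈ C.Δ}))
  rw [h1, card_H0] at h3
  have h4 : 13 ∣ Nat.card (MulAction.stabilizer H0 (⟨d, hd⟩ : {x // x ∈ C.Δ})) := ⟨1200, by omega⟩
  have h13 : Fact (Nat.Prime 13) := ⟨by norm_num⟩
  obtain ⟨j, hj⟩ := exists_prime_orderOf_dvd_card' 13 h4
  refine ⟨j, ?_, ?_⟩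
  · rw [← hj]; exact Subgroup.orderOf_coe j
  · exact congrArg Subtype.val j.2

theorem no_fixed {j : H0} (hj : orderOf j = 13) (y : Fin 1755) : ρ j y ≠ y := by
  intro h
  have h1 : j ∈ St y := h
  have h2 : orderOf (⟨j, h1⟩ : St y) ∣ Nat.card (St y) := orderOf_dvd_natCard _
  rw [card_St] at h2
  have h3 : orderOf (⟨j, h1⟩ : St y) = 13 := by rw [← hj]; exact (Subgroup.orderOf_coe (⟨j, h1⟩ : St y)).symm
  rw [h3] at h2
  norm_num at h2

theorem exclude_aux (hΔ : C.Δ.card = 2304) (M : YMap C ρ) (d : Ω) (hd : d ∈ C.Δ)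
    (h1 : C.act e1 d = d) (h2 : C.act (e2 ^ 2) d = d) {m u : ℕ} (hu : chkU m u = true) (hs : szM u = 600) :
    M.S d ≠ ofMask m := by
  classical
  intro hS
  have i0 : ∀ g, C.act g d = d → ∀ y, ρ g y ∈ ofMask m ↔ y ∈ ofMask m := by
    intro g hg y
    have := M.S_act g d y
    rwa [hg, hS] at this
  obtain ⟨j, hj, hjd⟩ := exists_order13 hΔ d hd
  have hc := card_inU hu (i0 e1 h1) (i0 (e2 ^ 2) h2)
  rw [hs] at hc
  have hinv := inU_act (ofMask m) j (i0 j hjd)
  have hd := dvd_of_perm (X := {y // inU (ofMask m) y}) ((ρ j).subtypePerm (fun y => hinv y))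
    (by
      rw [Equiv.Perm.subtypePerm_pow]
      ext y
      show (((ρ j) ^ 13) y.val : Fin 1755).val = y.val.val
      rw [← map_pow, ← hj, pow_orderOf_eq_one, map_one]; rfl)
    (fun y h => no_fixed hj y.val (congrArg Subtype.val h))
  rw [Fintype.card_subtype, hc] at hd
  norm_num at hd

/-- some `S d` is one of the four good sets -/
theorem exists_good (hΔ : C.Δ.card = 2304) (hΩ : Fintype.card Ω = 4060) (M : YMap C ρ) :
    ∃ d ∈ C.Δ, ∃ m ∈ [G0, G1, G2, G3], M.S d = ofMask m := by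
  obtain ⟨d, hd, h1, h2⟩ := exists_fixed hΔ
  obtain ⟨m, hm, hm2⟩ := solve hΔ hΩ M d hd h1 h2
  refine ⟨d, hd, ?_⟩
  simp only [List.mem_cons, List.not_mem_nil, or_false] at hm
  rcases hm with rfl | rfl | rfl | rfl | rfl | rfl | rfl | rfl
  · exact ⟨G0, by simp, hm2⟩
  · exact ⟨G1, by simp, hm2⟩
  · exact ⟨G2, by simp, hm2⟩
  · exact ⟨G3, by simp, hm2⟩
  · exact absurd hm2 (exclude_aux hΔ M d hd h1 h2 chkU0 szU0)
  · exact absurd hm2 (exclude_aux hΔ M d hd h1 h2 chkU1 szU1)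
  · exact absurd hm2 (exclude_aux hΔ M d hd h1 h2 chkU2 szU2)
  · exact absurd hm2 (exclude_aux hΔ M d hd h1 h2 chkU3 szU3)

end Cfsg.Agent.SporRec.Ru.Exclude
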