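import Cfsg.Agent.SporRec.Ru.CertData_mg
import Cfsg.Agent.SporRec.Ru.NetData
import Cfsg.Agent.SporadicB.RuOrder
set_option linter.all false

/-! Kernel checks relating ²F₄(2) on the octagon with the Rudvalis graph on 4060 points. -/

set_option autoImplicit false
set_option maxRecDepth 100000
set_option exponentiation.threshold 5000

namespace Cfsg.Agent.SporRec.Ru.MatchChk

open Cfsg.Agent.SporRec.R3.Kernel Cfsg.Agent.SporRec.R3.Search
open Cfsg.Agent.SporRec.Ru.Data Cfsg.Agent.SporRec.Ru.CertData Cfsg.Agent.SporRec.Ru.NetData
open Cfsg.Agent.SporadicB.RuData Cfsg.Agent.Lib.BitNet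

theorem ok_a : okNet 4060 na = true := by decide +kernel
theorem ok_m : okNet 4060 nm = true := by decide +kernel
theorem ok_b : okNet 4060 nb = true := by decide +kernel
theorem ok_c : okNet 4060 nc = true := by decide +kernel

theorem inv_a : invCheck 12 row na = true := by decide +kernel
theorem inv_m : invCheck 12 row nm = true := by decide +kernel
theorem inv_b : invCheck 12 row nb = true := by decide +kernel
theorem inv_c : invCheck 12 row nc = true := by decide +kernel

theorem fix_a : app na 0 = 0 := by decide +kernel
theorem fix_m : app nm 0 = 0 := by decide +kernel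
theorem fix_b : app nb 0 = 0 := by decide +kernel
theorem fix_c : app nc 0 = 0 := by decide +kernel

/-- the embedding is compatible with a letter -/
noncomputable def chkPi (T : ℕ) (net : List (ℕ × ℕ)) : Bool :=
  allB (fun i => Nat.beq (look PI (look T i)) (app net (look PI i))) 1755

theorem pi_a : chkPi Ta na = true := by decide +kernel
theorem pi_m : chkPi Tm nm = true := by decide +kernel
theorem pi_b : chkPi Tb nb = true := by decide +kernel
theorem pi_c : chkPi Tc nc = true := by decide +kernel

theorem pi_lt : allB (fun i => Nat.ble (Nat.succ (look PI i)) 4060) 1755 = true := by decide +kernel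

theorem pi_zero : allB (fun i => Bool.rec (Bool.rec true false (Nat.beq (look PI i) (look PI 0))) true
    (Nat.beq i 0)) 1755 = true := by decide +kernel

theorem pi_row0 : allB (fun i => Nat.testBit (row 0) (look PI i)) 1755 = true := by decide +kernel

theorem row0_popc : popc 12 (row 0) = 1755 := by decide +kernel

/-- equality of booleans -/
noncomputable def beqB (a b : Bool) : Bool := Bool.rec (Bool.rec true false b) b a

theorem beqB_eq {a b : Bool} (h : beqB a b = true) : a = b := by
  revert h; cases a <;> cases b <;> decide

theorem pi_rowPi : allB (fun i => beqB (Nat.testBit (row (look PI 0)) (look PI i))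
    (Bool.rec false (Nat.ble i 730) (Nat.ble 1 i))) 1755 = true := by decide +kernel

/-- the good solutions are the sets of the points 2024, 2779, 3099, 3723 -/
noncomputable def chkG (m x : ℕ) : Bool :=
  force (row x) fun r => allB (fun y => beqB (Nat.testBit m (look LAB y))
    (Bool.rec true false (Nat.testBit r (look PI y)))) 1755

theorem g0 : chkG G0 2024 = true := by decide +kernel
theorem g1 : chkG G1 2779 = true := by decide +kernel
theorem g2 : chkG G2 3099 = true := by decide +kernel
theorem g3 : chkG G3 3723 = true := by decide +kernel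

/-- the points not orthogonal to `0` -/
def DM : ℕ := Nat.xor (Nat.xor (Nat.sub (Nat.pow 2 4060) 1) (row 0)) 1

theorem DM_popc : popc 12 DM = 2304 := by decide +kernel

/-- connectedness of the 2304 points -/
theorem DM_orb : Nat.land (iter [na, nm, nb, nc] 16 (Nat.pow 2 2024)) DM = DM := by decide +kernel

theorem x0_in : Nat.testBit DM 2024 = true := by decide +kernel
theorem xk_in : (Nat.testBit DM 2779 && (Nat.testBit DM 3099 && Nat.testBit DM 3723)) = true := by decide +kernel

/-- orthogonal to `0` and to `x0` -/
def WM : ℕ := Nat.land (row 0) (row 2024)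

theorem WM_popc : popc 12 WM = 780 := by decide +kernel

/-- the points of `Δ'` other than `x0` -/
def DM0 : ℕ := Nat.xor DM (Nat.pow 2 2024)

theorem c332 : Nat.land (cntSet 12 4060 row WM 332) DM0 = Nat.land (row 2024) DM := by decide +kernel
theorem p332 : popc 12 (Nat.land (cntSet 12 4060 row WM 332) DM0) = 975 := by decide +kernel
theorem p348 : popc 12 (Nat.land (cntSet 12 4060 row WM 348) DM0) = 650 := by decide +kernel
theorem p364 : popc 12 (Nat.land (cntSet 12 4060 row WM 364) DM0) = 600 := by decide +kernel
theorem p380 : popc 12 (Nat.land (cntSet 12 4060 row WM 380) DM0) = 78 := by decide +kernel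
theorem call : Nat.lor (Nat.land (cntSet 12 4060 row WM 332) DM0) (Nat.lor (Nat.land (cntSet 12 4060 row WM 348) DM0)
    (Nat.lor (Nat.land (cntSet 12 4060 row WM 364) DM0) (Nat.land (cntSet 12 4060 row WM 380) DM0))) = DM0 := by
  decide +kernel

/-- the mask of the opposite points -/
noncomputable def OM : ℕ :=
  orS (fun k => orS (fun j => Nat.pow 2 (look PI (Nat.add 731 (Nat.add (Nat.mul 32 k) j)))) 32) 32

theorem opp : Nat.land (cntSet 12 4060 row OM 448) (Nat.xor DM (Nat.land DM (row (look PI 0)))) =
    Nat.xor DM (Nat.land DM (row (look PI 0))) := by decide +kernel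

/-- no loops -/
theorem noloop : allB (fun i => Bool.rec true false (Nat.testBit (row i) i)) 4060 = true := by decide +kernel

end Cfsg.Agent.SporRec.Ru.MatchChk
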